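import Cfsg.Agent.Base

/-! Annihilators of additive subgroups for a perfect `ZMod p`-valued pairing, and the orbit count
`∑_w #{orbits O with w ∈ B O} = c |Ω|`. -/

set_option autoImplicit false
open Module

namespace H65

/-- annihilator of an additive subgroup for a biadditive pairing -/
def ann {V R : Type*} [AddCommGroup V] [AddCommGroup R] (b : V →+ V →+ R) (A : AddSubgroup V) :
    AddSubgroup V where
  carrier := {w | ∀ a ∈ A, b a w = 0}
  zero_mem' := fun a _ => map_zero _
  add_mem' := fun hx hy a ha => by rw [map_add, hx a ha, hy a ha, add_zero]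
  neg_mem' := fun hx a ha => by rw [map_neg, hx a ha, neg_zero]

theorem mem_ann {V R : Type*} [AddCommGroup V] [AddCommGroup R] {b : V →+ V →+ R}
    {A : AddSubgroup V} {w : V} : w ∈ ann b A ↔ ∀ a ∈ A, b a w = 0 := Iff.rfl

section
variable {p : ℕ} [Fact p.Prime] {V : Type*} [AddCommGroup V] [Finite V]

theorem card_mul_card_ann_aux [Module (ZMod p) V] (b : V →+ V →+ ZMod p)
    (hl : ∀ v, (∀ w, b v w = 0) → v = 0) (hr : ∀ w, (∀ v, b v w = 0) → w = 0) (A : AddSubgroup V) :
    Nat.card A * Nat.card (ann b A) = Nat.card V := by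
  let B : LinearMap.BilinForm (ZMod p) V := LinearMap.mk₂ (ZMod p) (fun v w => b v w)
    (fun _ _ _ => by rw [map_add]; rfl) (fun c v w => ZMod.map_smul (b.flip w) c v)
    (fun _ _ _ => map_add _ _ _) (fun c v w => ZMod.map_smul (b v) c w)
  have hB : B.Nondegenerate := ⟨hl, hr⟩
  have : Module.Finite (ZMod p) V := Module.Finite.of_finite
  have h1 := LinearMap.BilinForm.finrank_orthogonal hB (AddSubgroup.toZModSubmodule p A)
  have h2 := Submodule.finrank_le (AddSubgroup.toZModSubmodule p A)
  have h3 : Nat.card A = Nat.card (AddSubgroup.toZModSubmodule p A) := rfl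
  have h4 : Nat.card (ann b A) = Nat.card (B.orthogonal (AddSubgroup.toZModSubmodule p A)) := rfl
  rw [h3, h4, Module.natCard_eq_pow_finrank (K := ZMod p) (V := AddSubgroup.toZModSubmodule p A),
    Module.natCard_eq_pow_finrank (K := ZMod p) (V := B.orthogonal _),
    Module.natCard_eq_pow_finrank (K := ZMod p) (V := V), ← pow_add, h1, Nat.add_sub_cancel' h2]

theorem card_mul_card_ann (b : V →+ V →+ ZMod p) (hl : ∀ v, (∀ w, b v w = 0) → v = 0)
    (hr : ∀ w, (∀ v, b v w = 0) → w = 0) (A : AddSubgroup V) :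
    Nat.card A * Nat.card (ann b A) = Nat.card V :=
  @card_mul_card_ann_aux p _ V _ _ (AddCommGroup.zmodModule fun x => hl _ fun w => by
    rw [map_nsmul, AddMonoidHom.nsmul_apply, nsmul_eq_mul, ZMod.natCast_self, zero_mul]) b hl hr A

theorem mem_of_ann (b : V →+ V →+ ZMod p) (hl : ∀ v, (∀ w, b v w = 0) → v = 0)
    (hr : ∀ w, (∀ v, b v w = 0) → w = 0) (A : AddSubgroup V) {v : V}
    (hv : ∀ w ∈ ann b A, b v w = 0) : v ∈ A := by
  have h1 := card_mul_card_ann b hl hr A
  have h2 := card_mul_card_ann b.flip hr hl (ann b A)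
  have h3 : A = ann b.flip (ann b A) := AddSubgroup.eq_of_le_of_card_ge (fun a ha w hw => hw a ha)
    (Nat.eq_of_mul_eq_mul_left Nat.card_pos (by rw [h2, ← h1, mul_comm])).le
  rw [h3]; exact hv
end

/-- a nontrivial additive character of a finite field with values in the prime field -/
theorem exists_addChar (F : Type*) [Field F] [Finite F] :
    ∃ (p : ℕ) (_ : Fact p.Prime) (ψ : F →+ ZMod p), ∃ a, ψ a ≠ 0 := by
  obtain ⟨p, hp⟩ := CharP.exists F
  have := Fintype.ofFinite F
  have : Fact p.Prime := ⟨CharP.char_is_prime F p⟩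
  let := ZMod.algebra F p
  obtain ⟨f, hf⟩ := Module.Projective.exists_dual_ne_zero (ZMod p) (one_ne_zero (α := F))
  exact ⟨p, inferInstance, f.toAddMonoidHom, 1, hf⟩

open MulAction in
/-- The orbit count: if every point `ω` carries a set `B ω`, constant on orbits, of size
`c · |orbit ω|`, then `∑_w #{orbits O | w ∈ B O} = c |Ω|`. -/
theorem sum_card_orbits {Q Ω W : Type*} [Group Q] [MulAction Q Ω] [Finite Ω] [Fintype W]
    (B : Ω → Set W) (c : ℕ) (hc : ∀ ω, (B ω).ncard = c * (orbit Q ω).ncard) :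
    ∑ w, {r : orbitRel.Quotient Q Ω | w ∈ B r.out}.ncard = c * Nat.card Ω := by
  classical
  have := Fintype.ofFinite (orbitRel.Quotient Q Ω)
  rw [Nat.card_congr (selfEquivSigmaOrbits Q Ω), Nat.card_sigma, Finset.mul_sum]
  simp only [Nat.card_coe_set_eq, ← hc]
  have h := Finset.sum_card_bipartiteAbove_eq_sum_card_bipartiteBelow
    (fun (w : W) (r : orbitRel.Quotient Q Ω) => w ∈ B r.out) (s := Finset.univ) (t := Finset.univ)
  convert h using 2 with w _ r _
  · rw [← Set.ncard_coe_finset]; congr 1; ext; simp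
  · rw [← Set.ncard_coe_finset]; congr 1; ext; simp

end H65
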