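import Cfsg.Agent.Lib.MinDeg65.SL

/-! End of the proof: `SL_n(q)` has no transitive action of degree less than the number of points. -/

set_option autoImplicit false
open Matrix Module MulAction

namespace H65.MD

variable {ι : Type*} [Fintype ι] [DecidableEq ι] {F : Type*} [Field F]
variable {Ω : Type*} [MulAction (SpecialLinearGroup ι F) Ω]

theorem exists_form (ω : Ω)
    (hf : ∀ v f : ι → F, v ≠ 0 → f ⬝ᵥ v = 0 → T v f • ω = ω → f = 0) {v φ : ι → F} (hv : v ≠ 0)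
    (hφ : φ ≠ 0) (hφv : φ ⬝ᵥ v = 0) (ht : ∀ ω' : Ω, ∃ f, f ⬝ᵥ v = 0 ∧ T v f • ω' = ω) :
    ∃ Φ : (ι → F) → ι → F, (∀ u, φ ⬝ᵥ u = 0 → Φ u ⬝ᵥ v = 0) ∧
      (∀ u u', φ ⬝ᵥ u = 0 → φ ⬝ᵥ u' = 0 → Φ u ⬝ᵥ u' = Φ u' ⬝ᵥ u) ∧
      (∀ u (c : F), φ ⬝ᵥ u = 0 → Φ u = c • φ → c • v + u = 0) ∧
      ((2 : F) = 0 → ∀ u, φ ⬝ᵥ u = 0 → Φ u ⬝ᵥ u = 0) ∧
      ∀ (g : SpecialLinearGroup ι F) (a : F), g • v = a • v → φ ᵥ* g.1 = φ →
        ∀ u u', φ ⬝ᵥ u = 0 → φ ⬝ᵥ u' = 0 → Φ (g • u) ⬝ᵥ (g • u') = a * (Φ u ⬝ᵥ u') := by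
  choose Φ h1 h2 using fun u : ι → F => ht (T u φ • ω)
  have huniq : ∀ u f, f ⬝ᵥ v = 0 → T v f • T u φ • ω = ω → f = Φ u := fun u f h3 h4 => by
    have h5 : (f + -Φ u) ⬝ᵥ v = 0 := by rw [add_dotProduct, neg_dotProduct, h3, h1, neg_zero, add_zero]
    refine add_neg_eq_zero.1 (hf v _ hv h5 ?_)
    rw [T_add_right h3 (by rw [neg_dotProduct, h1, neg_zero]), T_neg_right (h1 u), mul_smul,
      inv_smul_eq_iff.2 (h2 u).symm, h4]
  have hadd : ∀ u u', φ ⬝ᵥ u = 0 → φ ⬝ᵥ u' = 0 →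
      Φ u + -((Φ u' ⬝ᵥ u) • φ) + Φ u' = Φ (u + u') := fun u u' hu hu' => by
    have h3 : (Φ u' ⬝ᵥ u) • φ ⬝ᵥ v = 0 := by rw [smul_dotProduct, hφv, smul_zero]
    have h4 : -((Φ u' ⬝ᵥ u) • φ) ⬝ᵥ v = 0 := by rw [neg_dotProduct, h3, neg_zero]
    have h5 : (Φ u + -((Φ u' ⬝ᵥ u) • φ)) ⬝ᵥ v = 0 := by rw [add_dotProduct, h1, h4, add_zero]
    refine huniq _ _ (by rw [add_dotProduct, h5, h1, add_zero]) ?_
    rw [T_add_right h5 (h1 u'), T_add_right (h1 u) h4, T_neg_right h3, T_add_left hu hu', mul_smul,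
      mul_smul, mul_smul, ← mul_smul (T v (Φ u')), T_comm (h1 u') hu hφv, mul_smul, mul_smul,
      inv_smul_smul, h2, h2]
  have hsymm : ∀ u u', φ ⬝ᵥ u = 0 → φ ⬝ᵥ u' = 0 → Φ u ⬝ᵥ u' = Φ u' ⬝ᵥ u := fun u u' hu hu' => by
    have h3 := hadd u u' hu hu'
    rw [add_comm u, ← hadd u' u hu' hu] at h3
    have h4 : (Φ u ⬝ᵥ u' - Φ u' ⬝ᵥ u) • φ = 0 := by
      rw [sub_smul]; linear_combination (exp := 1) h3
    exact sub_eq_zero.1 ((smul_eq_zero.1 h4).resolve_right hφ)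
  refine ⟨Φ, fun u _ => h1 u, hsymm, fun u c hu hc => ?_, fun h3 u hu => ?_,
    fun g a hg hg' u u' hu hu' => ?_⟩
  · by_contra h3
    have h4 : φ ⬝ᵥ c • v = 0 := by rw [dotProduct_smul, hφv, smul_zero]
    refine hφ (hf _ φ h3 (by rw [dotProduct_add, h4, hu, add_zero]) ?_)
    rw [T_add_left h4 hu, T_smul hφv, mul_smul, ← hc, h2]
  · have h4 := hadd u u hu hu
    rw [← two_smul F u, h3, zero_smul, ← huniq 0 0 (zero_dotProduct v) (by
      rw [T_zero_right, T_zero_left, one_smul, one_smul]), add_right_comm, ← two_smul F (Φ u), h3,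
      zero_smul, zero_add, neg_eq_zero] at h4
    exact (smul_eq_zero.1 h4).resolve_right hφ
  · obtain ⟨h, hh, hh'⟩ := ht (g • ω)
    have hk : ∀ x, (T v h * g) • x = g • x + (h ⬝ᵥ g • x) • v := fun x => by
      rw [mul_smul, T_smul_vec hh]
    have hkv : (T v h * g) • v = a • v := by
      rw [hk, hg, dotProduct_smul, hh, smul_zero, zero_smul, add_zero]
    have hkφ : φ ᵥ* ((T v h * g)⁻¹).1 = φ := by
      have : φ ᵥ* (T v h * g).1 = φ := by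
        rw [Matrix.SpecialLinearGroup.coe_mul, ← vecMul_vecMul, vecMul_T hh, hφv, zero_smul,
          add_zero, hg']
      nth_rewrite 1 [← this]
      rw [vecMul_vecMul, ← Matrix.SpecialLinearGroup.coe_mul, mul_inv_cancel,
        Matrix.SpecialLinearGroup.coe_one, vecMul_one]
    rw [← mul_smul] at hh'
    generalize T v h * g = k at hk hkv hkφ hh'
    have hker : ∀ x, φ ⬝ᵥ x = 0 → φ ⬝ᵥ k • x = 0 := fun x hx => by
      rw [← hx, ← vecMul_inv_dot k φ x, hkφ]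
    have hker' : ∀ x, φ ⬝ᵥ x = 0 → φ ⬝ᵥ g • x = 0 := fun x hx => by
      rw [sl_smul, dotProduct_mulVec, hg', hx]
    have ha : a ≠ 0 := fun h0 => hv (by
      rw [h0, zero_smul] at hkv
      exact smul_eq_zero_iff_eq k |>.1 hkv)
    have h3 : (Φ u ᵥ* (k⁻¹).1) ⬝ᵥ v = 0 := by
      have := vecMul_inv_dot k (Φ u) v
      rw [hkv, dotProduct_smul, h1] at this
      exact (smul_eq_zero.1 this).resolve_left ha
    have h4 : a • (Φ u ᵥ* (k⁻¹).1) = Φ (k • u) := by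
      refine huniq _ _ (by rw [smul_dotProduct, h3, smul_zero]) ?_
      have h5 := T_conj k hu
      rw [hkφ] at h5
      rw [← T_smul h3, ← hkv, ← T_conj k (h1 u), ← h5, mul_smul, mul_smul, mul_smul, mul_smul,
        inv_smul_smul, inv_smul_eq_iff.2 hh'.symm, h2, hh']
    rw [← vecMul_inv_dot k (Φ u) u', ← smul_eq_mul, ← smul_dotProduct, h4, hk u', dotProduct_add,
      dotProduct_smul, h1, smul_zero, add_zero, hsymm (k • u) _ (hker _ hu) (hker' _ hu'), hk u,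
      dotProduct_add, dotProduct_smul, h1, smul_zero, add_zero,
      hsymm _ _ (hker' _ hu) (hker' _ hu')]

/-- the diagonal matrix with `t⁻¹` at `i` and `t` at `j` -/
theorem exists_diag {i j : ι} (hij : i ≠ j) {t : F} (ht : t ≠ 0) :
    ∃ g : SpecialLinearGroup ι F, g • (Pi.single i 1 : ι → F) = t⁻¹ • (Pi.single i 1 : ι → F) ∧
      g • (Pi.single j 1 : ι → F) = t • (Pi.single j 1 : ι → F) ∧
      ∀ k, k ≠ i → k ≠ j → g • (Pi.single k 1 : ι → F) = Pi.single k 1 ∧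
        Pi.single k 1 ᵥ* g.1 = Pi.single k 1 := by
  refine ⟨⟨diagonal (Pi.mulSingle i t⁻¹ * Pi.mulSingle j t), ?_⟩, ?_, ?_, fun k h1 h2 => ⟨?_, ?_⟩⟩
  · simp [det_diagonal, Finset.prod_mul_distrib, Finset.prod_pi_mulSingle', ht]
  · refine (sl_smul _ _).trans ?_; simp [hij, ← Pi.single_smul']
  · refine (sl_smul _ _).trans ?_; simp [hij.symm, ← Pi.single_smul']
  · refine (sl_smul _ _).trans ?_; simp [h1, h2]
  · simp [h1, h2]

theorem final (ω : Ω)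
    (hf : ∀ v f : ι → F, v ≠ 0 → f ⬝ᵥ v = 0 → T v f • ω = ω → f = 0) {i₀ i₁ i₂ : ι}
    (h01 : i₀ ≠ i₁) (h02 : i₀ ≠ i₂) (h12 : i₁ ≠ i₂)
    (ht : ∀ ω' : Ω, ∃ f, f ⬝ᵥ (Pi.single i₀ 1 : ι → F) = 0 ∧ T (Pi.single i₀ (1 : F)) f • ω' = ω) :
    (∃ i₃, ∀ k, k = i₀ ∨ k = i₁ ∨ k = i₂ ∨ k = i₃) ∧ (∃ k, k ≠ i₀ ∧ k ≠ i₁ ∧ k ≠ i₂) ∧
      ∀ t : F, t ≠ 0 → t = 1 := by
  have hne : ∀ i : ι, (Pi.single i 1 : ι → F) ≠ 0 := fun i h => by simpa using congrFun h i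
  have hd : ∀ {i j : ι}, i ≠ j → (Pi.single i 1 : ι → F) ⬝ᵥ Pi.single j 1 = 0 := fun h => by
    simp [h]
  obtain ⟨Φ, h1, h2, h3, h4, h5⟩ := exists_form ω hf (hne i₀) (hne i₁) (hd h01.symm) ht
  have hnd : ∃ k, k ≠ i₀ ∧ k ≠ i₁ ∧ Φ (Pi.single i₂ 1) ⬝ᵥ Pi.single k 1 ≠ 0 := by
    by_contra hc
    push Not at hc
    have h6 := h3 _ (Φ (Pi.single i₂ 1) i₁) (hd h12) (funext fun k => by
      by_cases hk : k = i₁
      · simp [hk]
      · by_cases hk' : k = i₀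
        · simpa [hk', h01] using h1 _ (hd h12)
        · simpa [hk] using hc k hk' hk)
    simpa [h02.symm] using congrFun h6 i₂
  have hT : ∀ j, j ≠ i₀ → j ≠ i₁ → j ≠ i₂ →
      (∀ k, k ≠ i₁ → k ≠ j → Φ (Pi.single i₂ 1) ⬝ᵥ Pi.single k 1 = 0) ∧
        2 * (Φ (Pi.single i₂ 1) ⬝ᵥ Pi.single j 1) = 0 := fun j j0 j1 j2 => by
    have h6 := h5 (T (Pi.single i₂ 1) (Pi.single j 1)) 1
      (by rw [T_smul_vec (hd j2), hd j0, zero_smul, add_zero, one_smul])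
      (by rw [vecMul_T (hd j2), hd h12, zero_smul, add_zero])
    have h7 : (Pi.single i₁ 1 : ι → F) ⬝ᵥ (Pi.single j 1 + Pi.single i₂ 1) = 0 := by
      rw [dotProduct_add, hd h12, hd j1.symm, add_zero]
    have h8 : T (Pi.single i₂ 1 : ι → F) (Pi.single j 1) • (Pi.single j 1 : ι → F) =
        Pi.single j 1 + Pi.single i₂ 1 := by
      rw [T_smul_vec (hd j2)]; simp
    have h9 : ∀ k, k ≠ i₁ → k ≠ j → Φ (Pi.single i₂ 1) ⬝ᵥ Pi.single k 1 = 0 := fun k k1 kj => by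
      have := h6 _ _ (hd k1.symm) (hd j1.symm)
      rw [h8, T_smul_vec (hd j2), hd kj.symm, zero_smul, add_zero, one_mul, dotProduct_add,
        add_eq_left, h2 _ _ (hd k1.symm) (hd h12)] at this
      exact this
    refine ⟨h9, ?_⟩
    have := h6 _ _ (hd j1.symm) (hd j1.symm)
    rw [h8, dotProduct_add, h2 _ _ h7 (hd j1.symm), h2 _ _ h7 (hd h12), dotProduct_add,
      dotProduct_add, h9 i₂ h12.symm j2.symm, h2 _ _ (hd j1.symm) (hd h12)] at this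
    linear_combination this
  obtain ⟨k, k0, k1, hk⟩ := hnd
  have hD : ∀ t : F, t ≠ 0 → t * (if k = i₂ then t else 1) = t⁻¹ := fun t ht => by
    obtain ⟨g, g0, g2, g1⟩ := exists_diag h02 ht
    have h6 := h5 g _ g0 (g1 _ h01.symm h12).2 _ _ (hd k1.symm) (hd h12)
    rw [g2, dotProduct_smul, h2 _ _ (hd k1.symm) (hd h12)] at h6
    refine mul_right_cancel₀ hk ?_
    rw [← h6, smul_eq_mul, mul_assoc]
    split_ifs with h
    · have h7 : (Pi.single i₁ 1 : ι → F) ⬝ᵥ t • (Pi.single i₂ 1 : ι → F) = 0 := by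
        rw [dotProduct_smul, hd h12, smul_zero]
      rw [h, g2, h2 _ _ h7 (hd h12), dotProduct_smul, smul_eq_mul]
    · rw [(g1 k k0 h).1, one_mul, h2 _ _ (hd k1.symm) (hd h12)]
  have k2 : k ≠ i₂ := fun h => by
    have h6 := hD (-1) (neg_ne_zero.2 one_ne_zero)
    rw [if_pos h, inv_neg, inv_one] at h6
    exact hk (by rw [h]; exact h4 (by linear_combination h6) _ (hd h12))
  refine ⟨⟨k, fun j => ?_⟩, ⟨k, k0, k1, k2⟩, fun t ht => ?_⟩
  · by_contra hc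
    push Not at hc
    exact hk ((hT j hc.1 hc.2.1 hc.2.2.1).1 k k1 hc.2.2.2.symm)
  · have h6 := hD t ht
    have h7 := (mul_eq_zero.1 (hT k k0 k1 k2).2).resolve_right hk
    rw [if_neg k2, mul_one] at h6
    replace h6 := (congrArg (· * t) h6).trans (inv_mul_cancel₀ ht)
    refine sub_eq_zero.1 (pow_eq_zero_iff two_ne_zero |>.1 ?_)
    linear_combination h6 + (1 - t) * h7

/-- a non-trivial transitive action of `SL_n(q)`, `n ≥ 3`, `(n, q) ≠ (4, 2)`, has degree at least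
the number of points of the projective space -/
theorem le_card {n : ℕ} [MulAction (SpecialLinearGroup (Fin n) F) Ω] [Finite F] [Finite Ω]
    [IsPretransitive (SpecialLinearGroup (Fin n) F) Ω] [Nontrivial Ω] (hn : 3 ≤ n)
    (hexc : ¬ (n = 4 ∧ Nat.card F = 2)) :
    Nat.card F ^ n - 1 ≤ Nat.card Ω * (Nat.card F - 1) := by
  by_contra hΩ
  push Not at hΩ
  obtain ⟨ω⟩ : Nonempty Ω := inferInstance
  obtain ⟨⟨i₃, h1⟩, ⟨k, h2⟩, h3⟩ := final (F := F) ω (fun v f hv => (regular hn hΩ hv ω).1 f)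
    (i₀ := (⟨0, by omega⟩ : Fin n)) (i₁ := ⟨1, by omega⟩) (i₂ := ⟨2, by omega⟩)
    (by simp) (by simp) (by simp)
    fun ω' => (regular hn hΩ (fun h => by simpa using congrFun h ⟨0, by omega⟩) ω').2 ω
  refine hexc ⟨?_, (Nat.card_eq_two_iff' (0 : F)).2 ⟨1, one_ne_zero, h3⟩⟩
  have h4 := k.2
  simp only [ne_eq, Fin.ext_iff] at h1 h2
  by_contra h5
  have h6 := h1 ⟨3, by omega⟩
  have h7 := h1 ⟨4, by omega⟩
  simp only at h6 h7
  omega

end H65.MD
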