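import Cfsg.Agent.Lib.MinDeg65.Ann
import Cfsg.Agent.Lib.MinDeg65.Tv
import Cfsg.Agent.S2552

/-! Minimal degree of a permutation representation of `SL_n(q)`, `n ≥ 3`. -/

set_option autoImplicit false
open Matrix Module MulAction

namespace H65.MD

variable {ι : Type*} [Fintype ι] [DecidableEq ι] {F : Type*} [Field F]
variable {Ω : Type*} [MulAction (SpecialLinearGroup ι F) Ω]

/-- axes of the transvections with centre `v` fixing `ω` -/
def A (ω : Ω) (v : ι → F) : AddSubgroup (ι → F) where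
  carrier := {f | f ⬝ᵥ v = 0 ∧ T v f • ω = ω}
  zero_mem' := ⟨zero_dotProduct v, by rw [T_zero_right, one_smul]⟩
  add_mem' := fun ha hb => ⟨by rw [add_dotProduct, ha.1, hb.1, add_zero],
    by rw [T_add_right ha.1 hb.1, mul_smul, hb.2, ha.2]⟩
  neg_mem' := fun ha => ⟨by rw [neg_dotProduct, ha.1, neg_zero],
    by rw [T_neg_right ha.1, inv_smul_eq_iff, ha.2]⟩

theorem mem_A {ω : Ω} {v f : ι → F} : f ∈ A ω v ↔ f ⬝ᵥ v = 0 ∧ T v f • ω = ω := Iff.rfl

theorem A_smul (g : SpecialLinearGroup ι F) {ω : Ω} {v f : ι → F} (h : f ∈ A ω v) :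
    f ᵥ* (g⁻¹).1 ∈ A (g • ω) (g • v) :=
  ⟨by rw [vecMul_inv_dot, h.1], by rw [← T_conj g h.1, mul_smul, mul_smul, inv_smul_smul, h.2]⟩

theorem A_T (ω : Ω) {v f : ι → F} (h : f ⬝ᵥ v = 0) : A (T v f • ω) v = A ω v := by
  ext a
  refine and_congr_right fun ha => ?_
  rw [← mul_smul, ← T_add_right ha h, add_comm, T_add_right h ha, mul_smul, smul_left_cancel_iff]

/-- the pairing `ψ (f ⬝ w)` -/
def pair {R : Type*} [AddCommGroup R] (ψ : F →+ R) : (ι → F) →+ (ι → F) →+ R :=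
  AddMonoidHom.mk' (fun f => AddMonoidHom.mk' (fun w => ψ (f ⬝ᵥ w)) fun a b => by
    rw [dotProduct_add, map_add]) fun a b => AddMonoidHom.ext fun w => by
      simp only [AddMonoidHom.mk'_apply, AddMonoidHom.add_apply, add_dotProduct, map_add]

omit [DecidableEq ι] in
theorem pair_apply {R : Type*} [AddCommGroup R] (ψ : F →+ R) (f w : ι → F) :
    pair ψ f w = ψ (f ⬝ᵥ w) := rfl

omit [DecidableEq ι] in
theorem pair_left {R : Type*} [AddCommGroup R] {ψ : F →+ R} (hψ : ∃ a, ψ a ≠ 0) (f : ι → F)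
    (h : ∀ w, pair ψ f w = 0) : f = 0 := by
  classical
  by_contra hf
  obtain ⟨a, ha⟩ := hψ
  obtain ⟨φ, hφ⟩ := H30.exists_dot_eq_one hf
  refine ha ?_
  rw [← h (a • φ), pair_apply, dotProduct_smul, dotProduct_comm, hφ, smul_eq_mul, mul_one]

omit [DecidableEq ι] in
theorem pair_right {R : Type*} [AddCommGroup R] {ψ : F →+ R} (hψ : ∃ a, ψ a ≠ 0) (w : ι → F)
    (h : ∀ f, pair ψ f w = 0) : w = 0 :=
  pair_left hψ w fun f => by rw [← h f, pair_apply, pair_apply, dotProduct_comm]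

section
variable {p : ℕ} (ψ : F →+ ZMod p)

/-- the annihilator of `A ω v` -/
def B (ω : Ω) (v : ι → F) : AddSubgroup (ι → F) := ann (pair ψ) (A ω v)

variable {ψ}

theorem B_smul (g : SpecialLinearGroup ι F) {ω : Ω} {v w : ι → F} (h : w ∈ B ψ ω v) :
    g • w ∈ B ψ (g • ω) (g • v) := fun f hf => by
  have h1 := A_smul g⁻¹ hf
  rw [inv_smul_smul, inv_smul_smul, inv_inv] at h1
  rw [← h _ h1, pair_apply, pair_apply, sl_smul, dotProduct_mulVec]

theorem B_T (ω : Ω) {v f : ι → F} (h : f ⬝ᵥ v = 0) : B ψ (T v f • ω) v = B ψ ω v := by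
  rw [B, A_T ω h, B]

theorem mem_B_of_mem_span (ω : Ω) {v w : ι → F} (h : w ∈ Submodule.span F {v}) : w ∈ B ψ ω v :=
  fun f hf => by
    obtain ⟨c, rfl⟩ := Submodule.mem_span_singleton.1 h
    rw [pair_apply, dotProduct_smul, hf.1, smul_zero, map_zero]

variable [Fact p.Prime] [Finite F] [Finite Ω]

theorem uniq (hψ : ∃ a, ψ a ≠ 0) (h3 : 3 ≤ Fintype.card ι)
    (hΩ : Nat.card Ω * (Nat.card F - 1) < Nat.card F ^ Fintype.card ι - 1) {v w : ι → F}
    (hv : v ≠ 0) (hw : w ∉ Submodule.span F {v}) {ω ω' : Ω} (h1 : w ∈ B ψ ω v)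
    (h2 : w ∈ B ψ ω' v) : ∃ f, f ⬝ᵥ v = 0 ∧ T v f • ω = ω' := by
  classical
  by_contra hcon
  have := Fintype.ofFinite F
  let K : Submodule F (ι → F) := LinearMap.ker (dotProductEquiv F ι v)
  have hK : ∀ f, f ∈ K ↔ f ⬝ᵥ v = 0 := fun f => by
    rw [dotProduct_comm]; rfl
  let t : Multiplicative K →* SpecialLinearGroup ι F :=
    MonoidHom.mk' (fun f => T v f.toAdd.1) fun a b => T_add_right ((hK _).1 a.toAdd.2) ((hK _).1 b.toAdd.2)
  let := MulAction.compHom Ω t
  have hrel : ∀ a b : Ω, a ∈ orbit (Multiplicative K) b ↔ ∃ f, f ⬝ᵥ v = 0 ∧ T v f • b = a :=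
    fun a b => ⟨fun ⟨f, hf⟩ => ⟨f.toAdd.1, (hK _).1 f.toAdd.2, hf⟩,
      fun ⟨f, hf, hf'⟩ => ⟨Multiplicative.ofAdd ⟨f, (hK _).2 hf⟩, hf'⟩⟩
  have hV : Nat.card (ι → F) = Nat.card F ^ Fintype.card ι := by
    rw [Nat.card_fun, Nat.card_eq_fintype_card (α := ι)]
  have hKc : Nat.card F * Nat.card (Multiplicative K) = Nat.card (ι → F) := by
    have h4 := LinearMap.finrank_range_add_finrank_ker (dotProductEquiv F ι v)
    rw [LinearMap.range_eq_top.2 fun c => by
      obtain ⟨φ, hφ⟩ := H30.exists_dot_eq_one hv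
      exact ⟨c • φ, by
        change v ⬝ᵥ (c • φ) = c
        rw [dotProduct_smul, dotProduct_comm, hφ, smul_eq_mul, mul_one]⟩] at h4
    rw [Nat.card_congr Multiplicative.toAdd, Module.natCard_eq_pow_finrank (K := F) (V := K),
      Module.natCard_eq_pow_finrank (K := F) (V := ι → F), ← h4, finrank_top, finrank_self, pow_add,
      pow_one]
  have hc : ∀ a : Ω, (B ψ a v : Set (ι → F)).ncard =
      Nat.card F * (orbit (Multiplicative K) a).ncard := fun a => by
    have h4 := card_mul_card_ann (pair ψ) (pair_left hψ) (pair_right hψ) (A a v)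
    have h5 := (stabilizer (Multiplicative K) a).index_mul_card
    have h6 : Nat.card (stabilizer (Multiplicative K) a) = Nat.card (A a v) :=
      Nat.card_congr
        { toFun := fun f => ⟨f.1.toAdd.1, (hK _).1 f.1.toAdd.2, f.2⟩
          invFun := fun f => ⟨Multiplicative.ofAdd ⟨f.1, (hK _).2 f.2.1⟩, f.2.2⟩
          left_inv := fun _ => rfl
          right_inv := fun _ => rfl }
    rw [index_stabilizer, h6] at h5
    rw [← hKc, ← h5] at h4
    refine Nat.eq_of_mul_eq_mul_left (Nat.card_pos (α := A a v)) ?_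
    rw [← Nat.card_coe_set_eq]
    exact h4.trans (by ring)
  have hsum := sum_card_orbits (Q := Multiplicative K) (fun a : Ω => (B ψ a v : Set (ι → F))) _ hc
  have hout : ∀ a : Ω, B ψ (Quotient.mk (orbitRel (Multiplicative K) Ω) a).out v = B ψ a v := fun a => by
    obtain ⟨f, hf, hf'⟩ := (hrel _ _).1 (orbitRel_apply.1
      (Quotient.exact (Quotient.out_eq (Quotient.mk (orbitRel (Multiplicative K) Ω) a))))
    rw [← hf', B_T _ hf]
  have hge : ∀ x : ι → F, 2 ≤ (if x ∈ Submodule.span F {v} then 1 else 0) +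
      {r : orbitRel.Quotient (Multiplicative K) Ω | x ∈ (B ψ r.out v : Set (ι → F))}.ncard := by
    intro x
    split_ifs with hx
    · have := (Set.ncard_pos (s := {r : orbitRel.Quotient (Multiplicative K) Ω |
        x ∈ (B ψ r.out v : Set (ι → F))})).2 ⟨Quotient.mk _ ω, mem_B_of_mem_span _ hx⟩
      omega
    · obtain ⟨g, hg, rfl⟩ := exists_fix_smul h3 hw hx
      rw [zero_add, Nat.succ_le_iff, Set.one_lt_ncard]
      refine ⟨Quotient.mk _ (g • ω), ?_, Quotient.mk _ (g • ω'), ?_, fun h => hcon ?_⟩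
      · change g • w ∈ B ψ _ v
        rw [hout]; simpa only [hg] using B_smul g h1
      · change g • w ∈ B ψ _ v
        rw [hout]; simpa only [hg] using B_smul g h2
      · obtain ⟨f, hf, hf'⟩ := (hrel _ _).1 (orbitRel_apply.1 (Quotient.exact h.symm))
        have h4 := T_conj g⁻¹ hf
        rw [inv_smul_eq_iff.2 hg.symm] at h4
        refine ⟨f ᵥ* (g⁻¹⁻¹).1, ?_, ?_⟩
        · rw [← hf, ← vecMul_inv_dot g⁻¹ f v, inv_smul_eq_iff.2 hg.symm]
        · rw [← h4, inv_inv, mul_smul, mul_smul, hf', inv_smul_smul]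
  have h4 := Finset.sum_le_sum fun x (_ : x ∈ Finset.univ) => hge x
  have h7 : (Finset.univ.filter fun x : ι → F => x ∈ Submodule.span F {v}).card = Nat.card F := by
    rw [← Fintype.card_subtype, ← Nat.card_eq_fintype_card,
      Module.natCard_eq_pow_finrank (K := F) (V := Submodule.span F {v}), finrank_span_singleton hv,
      pow_one]
  rw [Finset.sum_add_distrib, hsum, Finset.sum_const, Finset.card_univ,
    ← Nat.card_eq_fintype_card (α := ι → F), hV, Finset.sum_boole, h7] at h4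
  have hq : 2 ≤ Nat.card F := Finite.one_lt_card
  have h5 : Nat.card F ≤ Nat.card F ^ Fintype.card ι := Nat.le_self_pow (by omega) _
  generalize Nat.card F ^ Fintype.card ι = x at *
  generalize Nat.card Ω = N at *
  obtain ⟨r, hr⟩ := Nat.exists_eq_add_of_le' hq
  rw [hr] at h4 h5 hΩ
  simp only [smul_eq_mul, Nat.cast_id] at h4
  obtain ⟨y, rfl⟩ := Nat.exists_eq_add_of_le' h5
  rw [show r + 2 - 1 = r + 1 from rfl, show y + (r + 2) - 1 = y + r + 1 from rfl] at hΩ
  nlinarith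

theorem dichotomy (hψ : ∃ a, ψ a ≠ 0) (h3 : 3 ≤ Fintype.card ι)
    (hΩ : Nat.card Ω * (Nat.card F - 1) < Nat.card F ^ Fintype.card ι - 1) {v : ι → F}
    (hv : v ≠ 0) (ω : Ω) :
    B ψ ω v = ⊤ ∨ ∃ w, ∀ f, f ⬝ᵥ v = 0 → f ⬝ᵥ w = 0 → T v f • ω = ω := by
  suffices h : B ψ ω v = ⊤ ∨ ∃ w, ∀ x ∈ B ψ ω v, x ∈ Submodule.span F {v, w} by
    refine h.imp_right fun ⟨w, hw⟩ => ⟨w, fun f h1 h2 => ?_⟩
    refine (mem_of_ann (pair ψ) (pair_left hψ) (pair_right hψ) (A ω v) fun x hx => ?_).2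
    obtain ⟨a, b, rfl⟩ := Submodule.mem_span_pair.1 (hw x hx)
    rw [pair_apply, dotProduct_add, dotProduct_smul, dotProduct_smul, h1, h2, smul_zero, smul_zero,
      add_zero, map_zero]
  have key : ∀ w ∈ B ψ ω v, ∀ w' ∈ B ψ ω v, w ∉ Submodule.span F {v} →
      w' ∉ Submodule.span F {v, w} →
      ∃ f, f ⬝ᵥ w = 0 ∧ f ⬝ᵥ w' = 1 ∧ ∀ x, f ⬝ᵥ x = 0 → x ∈ B ψ ω v := by
    intro w hw w' hw' h1 h2
    obtain ⟨f, hf, hf'⟩ := exists_dot_ann _ h2 1
    have hfv := hf v (Submodule.subset_span (by simp))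
    have hfw := hf w (Submodule.subset_span (by simp))
    refine ⟨f, hfw, hf', fun x hx => ?_⟩
    have hg : T x f • v = v := by rw [T_smul_vec hx, hfv, zero_smul, add_zero]
    have h4 := B_smul (T x f) hw
    rw [hg, T_smul_vec hx, hfw, zero_smul, add_zero] at h4
    obtain ⟨a, ha, ha'⟩ := uniq hψ h3 hΩ hv h1 hw h4
    have h5 := B_smul (T x f) hw'
    rw [hg, ← ha', B_T _ ha, T_smul_vec hx, hf', one_smul] at h5
    exact (AddSubgroup.add_mem_cancel_left _ hw').1 h5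
  by_contra hcon
  push Not at hcon
  obtain ⟨w, hw, h1⟩ := hcon.2 v
  rw [Set.pair_eq_singleton] at h1
  obtain ⟨w', hw', h2⟩ := hcon.2 w
  obtain ⟨f, -, hf, hf'⟩ := key w hw w' hw' h1 h2
  obtain ⟨f', hf2, -, hf3⟩ := key w' hw' w hw
    (fun h => h2 (Submodule.span_mono (by simp) h)) fun h => by
      obtain ⟨a, b, hab⟩ := Submodule.mem_span_pair.1 h
      by_cases hb : b = 0
      · exact h1 (Submodule.mem_span_singleton.2 ⟨a, by rw [← hab, hb, zero_smul, add_zero]⟩)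
      · exact h2 (Submodule.mem_span_pair.2 ⟨-(a / b), b⁻¹, by
          rw [← hab, smul_add, smul_smul, smul_smul, inv_mul_cancel₀ hb]; module⟩)
  refine hcon.1 (eq_top_iff.2 fun y _ => ?_)
  rw [← sub_add_cancel y ((f ⬝ᵥ y) • w')]
  exact add_mem (hf' _ (by rw [dotProduct_sub, dotProduct_smul, hf, smul_eq_mul, mul_one, sub_self]))
    (hf3 _ (by rw [dotProduct_smul, hf2, smul_zero]))
end

/-- centres `v` such that all transvections with centre `v` fix `ω` -/
def S (F : Type*) [Field F] (ι : Type*) [Fintype ι] [DecidableEq ι]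
    [MulAction (SpecialLinearGroup ι F) Ω] (ω : Ω) : Submodule F (ι → F) where
  carrier := {v | ∀ f, f ⬝ᵥ v = 0 → T v f • ω = ω}
  zero_mem' := fun f _ => by rw [T_zero_left, one_smul]
  smul_mem' := fun c v hv f hf => by
    by_cases hc : c = 0
    · rw [hc, zero_smul, T_zero_left, one_smul]
    · have h1 : f ⬝ᵥ v = 0 := by
        rw [dotProduct_smul] at hf; exact (smul_eq_zero.1 hf).resolve_left hc
      rw [T_smul h1, hv _ (by rw [smul_dotProduct, h1, smul_zero])]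
  add_mem' := fun {v v'} hv hv' f hf => by
    by_cases h : v' ∈ Submodule.span F {v}
    · obtain ⟨c, rfl⟩ := Submodule.mem_span_singleton.1 h
      rw [show v + c • v = (1 + c) • v by module] at hf ⊢
      by_cases hc : 1 + c = 0
      · rw [hc, zero_smul, T_zero_left, one_smul]
      · have h1 : f ⬝ᵥ v = 0 := by
          rw [dotProduct_smul] at hf; exact (smul_eq_zero.1 hf).resolve_left hc
        rw [T_smul h1, hv _ (by rw [smul_dotProduct, h1, smul_zero])]
    · obtain ⟨a, ha, ha'⟩ := exists_dot_ann _ h 1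
      have h1 := ha v (Submodule.mem_span_singleton_self v)
      have h2 : T v a • v' = v + v' := by rw [T_smul_vec h1, ha', one_smul, add_comm]
      have h3 : (f ᵥ* ((T v a)⁻¹⁻¹).1) ⬝ᵥ v' = 0 := by
        rw [← hf, ← vecMul_inv_dot (T v a)⁻¹ f, ← h2, inv_smul_smul]
      have h4 := A_smul (T v a) (ω := ω) ⟨h3, hv' _ h3⟩
      rw [hv a h1, h2, vecMul_vecMul, ← Matrix.SpecialLinearGroup.coe_mul, inv_inv, mul_inv_cancel,
        Matrix.SpecialLinearGroup.coe_one, vecMul_one] at h4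
      exact h4.2

theorem mem_S {ω : Ω} {v : ι → F} : v ∈ S F ι ω ↔ ∀ f, f ⬝ᵥ v = 0 → T v f • ω = ω := Iff.rfl

theorem S_smul (g : SpecialLinearGroup ι F) {ω : Ω} {v : ι → F} (h : v ∈ S F ι ω) :
    g • v ∈ S F ι (g • ω) := fun f hf => by
  have h3 : (f ᵥ* (g⁻¹⁻¹).1) ⬝ᵥ v = 0 := by rw [← hf, ← vecMul_inv_dot g⁻¹ f, inv_smul_smul]
  have h4 := A_smul g (ω := ω) ⟨h3, h _ h3⟩
  rw [vecMul_vecMul, ← Matrix.SpecialLinearGroup.coe_mul, inv_inv, mul_inv_cancel,
    Matrix.SpecialLinearGroup.coe_one, vecMul_one] at h4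
  exact h4.2

theorem S_smul_eq (g : SpecialLinearGroup ι F) (ω : Ω) :
    S F ι (g • ω) = (S F ι ω).map (Matrix.SpecialLinearGroup.toLin' g : (ι → F) →ₗ[F] (ι → F)) := by
  apply le_antisymm
  · intro v hv
    have h1 := S_smul g⁻¹ hv
    rw [inv_smul_smul] at h1
    exact Submodule.mem_map.2 ⟨g⁻¹ • v, h1, smul_inv_smul g v⟩
  · intro x hx
    obtain ⟨v, hv, rfl⟩ := Submodule.mem_map.1 hx
    exact S_smul g hv

theorem S_ne_top [IsPretransitive (SpecialLinearGroup ι F) Ω] [Nontrivial Ω] (ω : Ω) :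
    S F ι ω ≠ ⊤ := fun h => by
  have h1 := eq_top_of_T (stabilizer (SpecialLinearGroup ι F) ω) fun v f hf =>
    (h ▸ Submodule.mem_top : v ∈ S F ι ω) f hf
  obtain ⟨ω', h2⟩ := exists_ne ω
  obtain ⟨g, rfl⟩ := exists_smul_eq (SpecialLinearGroup ι F) ω ω'
  exact h2 (h1 ▸ Subgroup.mem_top g : g ∈ stabilizer (SpecialLinearGroup ι F) ω)

theorem S_eq_bot {n : ℕ} [MulAction (SpecialLinearGroup (Fin n) F) Ω] [Finite F] [Finite Ω]
    [IsPretransitive (SpecialLinearGroup (Fin n) F) Ω] [Nontrivial Ω] (hn : 1 ≤ n)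
    (hΩ : Nat.card Ω * (Nat.card F - 1) < Nat.card F ^ n - 1) (ω : Ω) : S F (Fin n) ω = ⊥ := by
  by_contra h
  have := Fintype.ofFinite F
  have h1 := le_card_subspaces (F := F) (V := Fin n → F) (k := finrank F (S F (Fin n) ω))
    (Nat.pos_of_ne_zero fun h' => h (Submodule.finrank_eq_zero.1 h'))
    (Submodule.finrank_lt (S_ne_top ω))
  have h2 : Function.Surjective fun a : Ω =>
      (⟨S F (Fin n) a, by
        obtain ⟨g, rfl⟩ := exists_smul_eq (SpecialLinearGroup (Fin n) F) ω a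
        rw [S_smul_eq, LinearEquiv.finrank_map_eq]⟩ :
        {U : Submodule F (Fin n → F) // finrank F U = finrank F (S F (Fin n) ω)}) := by
    rintro ⟨U, hU⟩
    obtain ⟨g, hg⟩ := Cfsg.Agent.S2552.result n hn _ _ hU.symm
    exact ⟨g • ω, Subtype.ext ((S_smul_eq g ω).trans hg)⟩
  have h3 := Nat.mul_le_mul_right (Nat.card F - 1) (Nat.card_le_card_of_surjective _ h2)
  rw [finrank_fintype_fun_eq_card, Fintype.card_fin] at h1
  omega

/-- the spread argument -/
theorem not_all_large (h3 : 3 ≤ Fintype.card ι) {ω : Ω} (hS : S F ι ω = ⊥) :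
    ¬ ∀ v : ι → F, v ≠ 0 → ∃ w, ∀ f, f ⬝ᵥ v = 0 → f ⬝ᵥ w = 0 → T v f • ω = ω := by
  intro h
  choose! w hw using h
  have hS' : ∀ v : ι → F, v ≠ 0 → v ∉ S F ι ω := fun v hv h => hv (by rwa [hS] at h)
  have hw1 : ∀ v, v ≠ 0 → w v ∉ Submodule.span F {v} := fun v hv h => hS' v hv fun f hf => by
    obtain ⟨c, hc⟩ := Submodule.mem_span_singleton.1 h
    exact hw v hv f hf (by rw [← hc, dotProduct_smul, hf, smul_zero])
  have key : ∀ v v', v ≠ 0 → v' ≠ 0 → v' ∉ Submodule.span F {v, w v} →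
      w v ∈ Submodule.span F {v', w v', v} := fun v v' hv hv' h => by
    by_contra hc
    obtain ⟨f, hf, hf'⟩ := exists_dot_ann _ hc 1
    have h1 := hf v' (Submodule.subset_span (by simp))
    have h2 := hf (w v') (Submodule.subset_span (by simp))
    have h4 := hf v (Submodule.subset_span (by simp))
    refine hS' v hv fun a ha => ?_
    obtain ⟨f', h5, h6⟩ := exists_dot_ann _ h (a ⬝ᵥ w v)
    have h7 := h5 v (Submodule.subset_span (by simp))
    have h8 := congrArg (· • ω) (T_comm h7 h1 h4)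
    simp only [mul_smul, hw v' hv' f h1 h2, hw v hv f' h7 (h5 _ (Submodule.subset_span (by simp))),
      h6] at h8
    have h9 : (a - (a ⬝ᵥ w v) • f) ⬝ᵥ v = 0 := by
      rw [sub_dotProduct, smul_dotProduct, ha, h4, smul_zero, sub_zero]
    rw [← sub_add_cancel a ((a ⬝ᵥ w v) • f), T_add_right h9 (by rw [smul_dotProduct, h4, smul_zero]),
      mul_smul, ← h8]
    exact hw v hv _ h9 (by rw [sub_dotProduct, smul_dotProduct, hf', smul_eq_mul, mul_one, sub_self])
  have hfr : ∀ v, v ≠ 0 → finrank F (Submodule.span F {v, w v}) = 2 := fun v hv => by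
    have : LinearIndependent F ![v, w v] := by
      rw [LinearIndependent.pair_iff' hv]
      exact fun a ha => hw1 v hv (Submodule.mem_span_singleton.2 ⟨a, ha⟩)
    have h1 := finrank_span_eq_card this
    rwa [Matrix.range_cons, Matrix.range_cons, Matrix.range_empty, Set.union_empty,
      Set.singleton_union, Fintype.card_fin] at h1
  have symm : ∀ x y, x ≠ 0 → y ≠ 0 → y ∈ Submodule.span F {x, w x} →
      x ∈ Submodule.span F {y, w y} := fun x y hx hy h => by
    by_contra hc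
    have h1 : Submodule.span F {y, w y} ≤ Submodule.span F {x, w x} := by
      refine Submodule.span_le.2 (Set.pair_subset h (Submodule.span_le.2 ?_ (key y x hy hx hc)))
      rintro _ (rfl | rfl | rfl)
      exacts [Submodule.subset_span (by simp), Submodule.subset_span (by simp), h]
    rw [Submodule.eq_of_le_of_finrank_eq h1 (by rw [hfr x hx, hfr y hy])] at hc
    exact hc (Submodule.subset_span (by simp))
  obtain ⟨v, hv⟩ := exists_notMem_of_finrank_lt (F := F) (ι := ι) ⊥ (by rw [finrank_bot]; omega)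
  rw [Submodule.mem_bot] at hv
  obtain ⟨v', hv'⟩ := exists_notMem_of_finrank_lt _ ((finrank_span_pair_le v (w v)).trans_lt h3)
  have hv0 : v' ≠ 0 := fun h => hv' (h ▸ Submodule.zero_mem _)
  obtain ⟨a, b, c, habc⟩ := Submodule.mem_span_triple.1 (key v v' hv hv0 hv')
  have hu : a • v' + b • w v' ≠ 0 := fun h => hw1 v hv (Submodule.mem_span_singleton.2 ⟨c, by
    rw [← habc, h, zero_add]⟩)
  have h1 := symm v _ hv hu (Submodule.mem_span_pair.2 ⟨-c, 1, by rw [← habc]; module⟩)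
  have h2 := symm v' _ hv0 hu (Submodule.mem_span_pair.2 ⟨a, b, rfl⟩)
  have h4 : Submodule.span F {v, w v} ≤
      Submodule.span F {a • v' + b • w v', w (a • v' + b • w v')} := by
    refine Submodule.span_le.2 (Set.pair_subset h1 ?_)
    rw [← habc]
    exact add_mem (Submodule.subset_span (by simp)) (Submodule.smul_mem _ _ h1)
  rw [Submodule.eq_of_le_of_finrank_eq h4 (by rw [hfr v hv, hfr _ hu])] at hv'
  exact hv' h2

theorem regular {n : ℕ} [MulAction (SpecialLinearGroup (Fin n) F) Ω] [Finite F] [Finite Ω]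
    [IsPretransitive (SpecialLinearGroup (Fin n) F) Ω] [Nontrivial Ω] (hn : 3 ≤ n)
    (hΩ : Nat.card Ω * (Nat.card F - 1) < Nat.card F ^ n - 1) {v : Fin n → F} (hv : v ≠ 0) (ω : Ω) :
    (∀ f, f ⬝ᵥ v = 0 → T v f • ω = ω → f = 0) ∧ ∀ ω', ∃ f, f ⬝ᵥ v = 0 ∧ T v f • ω = ω' := by
  obtain ⟨p, _, ψ, hψ⟩ := exists_addChar F
  have h3 : 3 ≤ Fintype.card (Fin n) := by rwa [Fintype.card_fin]
  have hΩ' : Nat.card Ω * (Nat.card F - 1) < Nat.card F ^ Fintype.card (Fin n) - 1 := by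
    rwa [Fintype.card_fin]
  have h1 := not_all_large h3 (S_eq_bot (by omega) hΩ ω)
  push Not at h1
  obtain ⟨v₀, hv₀, h1⟩ := h1
  have h2 : B ψ ω v₀ = ⊤ := (dichotomy hψ h3 hΩ' hv₀ ω).resolve_right fun ⟨w, hw⟩ => by
    obtain ⟨f, h4, h5, h6⟩ := h1 w
    exact h6 (hw f h4 h5)
  obtain ⟨g, hg⟩ : ∃ g : SpecialLinearGroup (Fin n) F, g • v₀ = v :=
    H30.exists_SL_mulVec_eq (by omega) hv₀ hv
  have h4 : ∀ x, x ∈ B ψ (g • ω) v := fun x => by
    have := B_smul g (h2 ▸ AddSubgroup.mem_top _ : g⁻¹ • x ∈ B ψ ω v₀)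
    rwa [smul_inv_smul, hg] at this
  have h5 : ∀ ω', ∃ f, f ⬝ᵥ v = 0 ∧ T v f • g • ω = ω' := fun ω' => by
    by_cases h : ∀ x ∈ B ψ ω' v, x ∈ Submodule.span F {v}
    · refine absurd ?_ hv
      rw [← Submodule.mem_bot F, ← S_eq_bot (by omega) hΩ ω']
      intro f hf
      refine (mem_of_ann (pair ψ) (pair_left hψ) (pair_right hψ) (A ω' v) fun x hx => ?_).2
      obtain ⟨c, rfl⟩ := Submodule.mem_span_singleton.1 (h x hx)
      rw [pair_apply, dotProduct_smul, hf, smul_zero, map_zero]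
    · push Not at h
      obtain ⟨x, hx, hx'⟩ := h
      exact uniq hψ h3 hΩ' hv hx' (h4 x) hx
  obtain ⟨a, ha, ha'⟩ := h5 ω
  refine ⟨fun f hf hf' => pair_left hψ f fun x => h4 x f ?_, fun ω' => ?_⟩
  · have h6 : f ∈ A (T v a • g • ω) v := by rw [ha']; exact ⟨hf, hf'⟩
    rwa [A_T _ ha] at h6
  · obtain ⟨b, hb, hb'⟩ := h5 ω'
    have h6 : (b - a) ⬝ᵥ v = 0 := by rw [sub_dotProduct, ha, hb, sub_self]
    refine ⟨b - a, h6, ?_⟩
    nth_rewrite 1 [← ha']
    rw [← mul_smul, ← T_add_right h6 ha, sub_add_cancel, hb']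

end H65.MD
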